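import Cfsg.Agent.M24.P24

/-! # Running over the subsets of given size -/

set_option autoImplicit false

namespace Cfsg.Agent.M24

open Finset

/-- Number of `k`-subsets `S` of the first `n` points with `f (acc ∪ S)`. -/
noncomputable def cntSubs (f : ℕ → Bool) (n : ℕ) : ℕ → ℕ → ℕ :=
  Nat.rec (motive := fun _ => ℕ → ℕ → ℕ)
    (fun k acc => bif' (Nat.beq k (nat_lit 0)) (b2n (f acc)) (nat_lit 0))
    (fun n ih k acc => bif' (Nat.beq k (nat_lit 0)) (b2n (f acc))
      (Nat.add (ih k acc) (force (Nat.lor acc (Nat.pow (nat_lit 2) n)) fun a =>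
        force (Nat.pred k) fun k' => ih k' a))) n

/-- The same count, skipping all supersets of sets violating `g`. -/
noncomputable def cntSubsP (g f : ℕ → Bool) (n : ℕ) : ℕ → ℕ → ℕ :=
  Nat.rec (motive := fun _ => ℕ → ℕ → ℕ)
    (fun k acc => bif' (Nat.beq k (nat_lit 0)) (b2n (f acc)) (nat_lit 0))
    (fun n ih k acc => bif' (Nat.beq k (nat_lit 0)) (b2n (f acc))
      (Nat.add (ih k acc) (force (Nat.lor acc (Nat.pow (nat_lit 2) n)) fun a =>
        bif' (g a) (force (Nat.pred k) fun k' => ih k' a) (nat_lit 0)))) n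

namespace Enc
variable {α : Type*} {n : ℕ} (E : Enc α n) [DecidableEq α] [Fintype α]

theorem cntSubs_eq (f : ℕ → Bool) {j : ℕ} (hj : j ≤ n) (k : ℕ) (A : Finset α) :
    cntSubs f j k (E.mask A) = ∑ S ∈ (univ.filter fun a => E.idx a < j).powerset,
      if S.card = k then b2n (f (E.mask (A ∪ S))) else 0 := by
  have h0 : ∀ (U A : Finset α), ∑ S ∈ U.powerset,
      (if S.card = 0 then b2n (f (E.mask (A ∪ S))) else 0) = b2n (f (E.mask A)) := fun U A => by
    rw [sum_eq_single_of_mem ∅ (empty_mem_powerset U) fun S _ hS => if_neg (by simpa using hS)]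
    simp
  induction j generalizing k A with
  | zero =>
    have : cntSubs f 0 k (E.mask A) = bif' (Nat.beq k 0) (b2n (f (E.mask A))) 0 := rfl
    rw [this, bif'_eq, filter_false_of_mem fun a _ => Nat.not_lt_zero _, powerset_empty, sum_singleton,
      union_empty, card_empty]
    exact if_congr (by rw [Nat.beq_eq, eq_comm]) rfl rfl
  | succ j ih =>
    have : cntSubs f (j + 1) k (E.mask A) = bif' (Nat.beq k 0) (b2n (f (E.mask A)))
      (cntSubs f j k (E.mask A) + force (Nat.lor (E.mask A) (2 ^ j)) fun a =>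
        force (Nat.pred k) fun k' => cntSubs f j k' a) := rfl
    rw [this, bif'_eq]
    simp only [Nat.beq_eq]
    split_ifs with hk
    · rw [hk, h0]
    have e : (univ.filter fun a => E.idx a < j + 1) =
        insert (E.pt j) (univ.filter fun a => E.idx a < j) := by
      ext a
      simp only [mem_filter, mem_univ, true_and, mem_insert]
      constructor
      · intro h
        rcases Nat.lt_succ_iff_lt_or_eq.1 h with h | h
        · exact Or.inr h
        · left; rw [← h, E.pt_idx]
      · rintro (rfl | h)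
        · rw [E.idx_pt j hj]; omega
        · omega
    have hn : E.pt j ∉ univ.filter fun a => E.idx a < j := by simp [E.idx_pt j hj]
    have e2 : Nat.lor (E.mask A) (2 ^ j) = E.mask (A ∪ {E.pt j}) := by
      rw [E.mask_union, E.mask_singleton, E.idx_pt j hj]
    rw [e, sum_powerset_insert hn, force_eq, force_eq, e2, ih (by omega), ih (by omega)]
    congr 1
    refine sum_congr rfl fun S hS => ?_
    rw [card_insert_of_notMem fun h => hn (mem_powerset.1 hS h), union_assoc, ← insert_eq]
    refine if_congr ?_ rfl rfl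
    rw [Nat.pred_eq_sub_one]; omega

theorem cntSubsP_eq {g f : ℕ → Bool}
    (h : ∀ A S : Finset α, f (E.mask (A ∪ S)) = true → g (E.mask A) = true) {j : ℕ} (hj : j ≤ n)
    (k : ℕ) (A : Finset α) : cntSubsP g f j k (E.mask A) = cntSubs f j k (E.mask A) := by
  induction j generalizing k A with
  | zero => rfl
  | succ j ih =>
    have e1 : cntSubs f (j + 1) k (E.mask A) = bif' (Nat.beq k 0) (b2n (f (E.mask A)))
      (cntSubs f j k (E.mask A) + force (Nat.lor (E.mask A) (2 ^ j)) fun a =>
        force (Nat.pred k) fun k' => cntSubs f j k' a) := rfl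
    have e3 : cntSubsP g f (j + 1) k (E.mask A) = bif' (Nat.beq k 0) (b2n (f (E.mask A)))
      (cntSubsP g f j k (E.mask A) + force (Nat.lor (E.mask A) (2 ^ j)) fun a =>
        bif' (g a) (force (Nat.pred k) fun k' => cntSubsP g f j k' a) 0) := rfl
    have e2 : Nat.lor (E.mask A) (2 ^ j) = E.mask (A ∪ {E.pt j}) := by
      rw [E.mask_union, E.mask_singleton, E.idx_pt j hj]
    rw [e1, e3, e2]
    simp only [force_eq, ih (Nat.le_of_succ_le hj), bif'_eq]
    congr 2
    split_ifs with hg
    · rfl
    · rw [E.cntSubs_eq f (Nat.le_of_succ_le hj)]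
      refine (sum_eq_zero fun S _ => ?_).symm
      split_ifs
      · rw [b2n_eq, if_neg fun hf => hg (h _ _ hf)]
      · rfl

theorem cntSubs_top (f : ℕ → Bool) (k : ℕ) (A : Finset α) :
    cntSubs f n k (E.mask A) =
      (univ.filter fun S : Finset α => S.card = k ∧ f (E.mask (A ∪ S)) = true).card := by
  rw [E.cntSubs_eq f le_rfl, filter_true_of_mem fun a _ => E.idx_lt a, powerset_univ, card_filter]
  refine sum_congr rfl fun S _ => ?_
  by_cases h : S.card = k <;> simp [h]

theorem ncard_subs {f : ℕ → Bool} {k : ℕ} {P : Finset α → Prop}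
    (h : ∀ S, S.card = k → (P S ↔ f (E.mask S) = true)) :
    {S | S.card = k ∧ P S}.ncard = cntSubs f n k 0 := by
  rw [← E.mask_empty, E.cntSubs_top, ← Set.ncard_coe_finset]
  congr 1
  ext S
  simp only [Set.mem_ofPred_eq, coe_filter, mem_univ, true_and, empty_union]
  exact and_congr_right (h S)

theorem forall_subs {f : ℕ → Bool} {k : ℕ} {A : Finset α}
    (h : cntSubs (fun m => !f m) n k (E.mask A) = 0) :
    ∀ S, S.card = k → f (E.mask (A ∪ S)) = true := by
  intro S hS
  rw [E.cntSubs_top, card_eq_zero, filter_eq_empty_iff] at h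
  simpa [hS] using h (mem_univ S)

theorem card_eq_pc (hn : n ≤ 24) (s : Finset α) : s.card = pc (E.mask s) := by
  have h1 : E.mask s < 2 ^ 24 := (E.mask_lt s).trans_le (Nat.pow_le_pow_right (by norm_num) hn)
  rw [← card_unmask h1, EG.card_eq_sum, E.card_eq_sum]
  have : EG.mask (M24.unmask (E.mask s)) = E.mask s := M24.mask_unmask h1
  rw [this]
  refine sum_subset (range_subset_range.2 hn) fun i _ hi => ?_
  rw [mem_range, not_lt] at hi
  rw [Nat.shiftRight_eq_div_pow, Nat.div_eq_of_lt
    ((E.mask_lt s).trans_le (Nat.pow_le_pow_right (by norm_num) hi))]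
  rfl

end Enc

/-- Evaluate `f` on all entries of the list, then continue. -/
noncomputable def lmapk (l : List ℕ) (f : ℕ → ℕ) : (List ℕ → Bool) → Bool :=
  List.rec (motive := fun _ => (List ℕ → Bool) → Bool) (fun k => k [])
    (fun x _ ih k => force (f x) fun y => ih fun l => k (y :: l)) l

theorem lmapk_eq (l : List ℕ) (f : ℕ → ℕ) (k : List ℕ → Bool) : lmapk l f k = k (l.map f) := by
  induction l generalizing k with
  | nil => rfl
  | cons x l ih =>
    have : lmapk (x :: l) f k = force (f x) fun y => lmapk l f fun l => k (y :: l) := rfl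
    rw [this, force_eq, ih]; rfl

end Cfsg.Agent.M24
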