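import Cfsg.Agent.M24.LinAct
import Cfsg.Agent.GT.Notation
import Cfsg.Agent.GT.Basic

/-! # Centralizers of elements of order three and five -/

set_option autoImplicit false

namespace Cfsg.Agent.M24

open Finset MulAction Cfsg.Agent.GT

theorem cent_of_chk {y : M24} {Y : ℕ} (hY : mcode y = Y) {L : Lvl} {Ls : List Lvl}
    (h1 : chkM (L :: Ls) = true) (n : ℕ)
    (h2 : L.b = 23 ∧ ap Y 23 ≠ 23 ∧ (∀ x, ap Y (idx x) ≠ idx x → L.t.has (idx x) = true) ∧
      ∀ K ∈ cM.take n, ∃ k < 5, K.b = (ap Y)^[k] 23)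
    (h3 : band (lall L.gens fun s => Nat.beq (mul s Y) (mul Y s)) (enum mul (fun p =>
      bor (!Nat.beq (ap p (ap Y 2)) (ap Y (ap p 2))) (bor (!Nat.beq (mul p Y) (mul Y p))
        (sift mul one ap (L :: Ls) p))) (cM.drop n) one) = true) :
    C1[y] = gen mcode L.gens := by
  subst hY
  rw [band_eq, Bool.and_eq_true] at h3
  have hle : gen mcode L.gens ≤ C1[y] := gen_le fun g hg => mem_cent1.2 (gcM.inj (by
    rw [gcM.code_mul, gcM.code_mul]; exact Nat.eq_of_beq_eq_true ((lall_iff _ _).1 h3.1 _ hg)))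
  refine le_antisymm (fun c hc => ?_) hle
  obtain ⟨k, hk, h4⟩ := (chkM_sound h1).2.1.reduce acM 1 hle (fun x _ e => ⟨fun g hg =>
    T.has_sound (h2.2.2.1 _ fun h => h2.2.1 (by
      rw [acM.ap_code y trivial, idx_inj.eq_iff, ← mul_smul, ← mem_cent1.1 hg, mul_smul,
        smul_left_cancel_iff] at h
      rw [← h2.1, ← e, acM.ap_code y trivial, h])), trivial⟩) c hc
  have h5 : (k * c) • (none : GolayPt) = none := h4 L (by simp) _ trivial h2.1.symm
  have h6 := mem_cent1.1 (mul_mem (hle hk) hc)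
  have h7 : ∀ j, (ap (mcode y))^[j] 23 = idx (y ^ j • (none : GolayPt)) := fun j => by
    induction j with
    | zero => rfl
    | succ j ih => rw [Function.iterate_succ_apply', ih, acM.ap_code y trivial, pow_succ', mul_smul]
  have h8 := ((chkM_sound cM_chk).2.1.drop n).enum_one gcM acM h3.2 _
    ((chkM_sound cM_chk).2.1.mem_drop n (g := k * c) (gen_gM.ge trivial) fun K hK x _ e => by
      obtain ⟨j, -, e'⟩ := h2.2.2.2 K hK
      rw [idx_inj (e.trans (e'.trans (h7 j))), ← mul_smul, (Commute.pow_right h6 j).eq, mul_smul, h5])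
  rw [← gcM.code_mul, ← gcM.code_mul, h6, show 2 = idx (pt 2) from rfl, acM.ap_code y trivial,
    acM.ap_code _ trivial, acM.ap_code _ trivial, acM.ap_code _ trivial, ← mul_smul, ← mul_smul,
    h6, Nat.beq_refl, Nat.beq_refl, bor_eq, bor_eq] at h8
  exact (mul_mem_cancel_left hk).1 ((mem_iff_sift h1).2 h8)

/-- A representative element. -/
noncomputable def wA : M24 := elt 13655864556283579443612969190199009
theorem mcode_wA : mcode wA = 13655864556283579443612969190199009 := mcode_elt (by decide +kernel)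
theorem orderOf_wA : orderOf wA = 3 :=
  haveI : Fact (Nat.Prime 3) := ⟨by norm_num⟩
  gcM.orderOf_prime mcode_wA (by decide +kernel)
def cwA_t0 : T := (.node (.node (.node (.node (.node .nil (nat_lit 0) (nat_lit 1584) (nat_lit
  0x904e4562381e8d499e564953b2c17) .nil) (nat_lit 1) (nat_lit 1073) (nat_lit 0xe4d21a2f4d1871157372916856e1)
  .nil) (nat_lit 2) (nat_lit 0x10c611) (nat_lit 0x30d477cd8b945b4116b67203005c89) (.node .nil (nat_lit 3)
  (nat_lit 529) (nat_lit 0x958cc821a9ac68e5a84439403b866f) .nil)) (nat_lit 4) (nat_lit 33) (nat_lit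
  0x259ed82193aba915a832380b718926) (.node (.node (.node .nil (nat_lit 5) (nat_lit 2097) (nat_lit
  0xa924d1968f145c74997362af608110) .nil) (nat_lit 6) (nat_lit 2) (nat_lit 0x99214195a811dd14981565d41b2df2)
  .nil) (nat_lit 8) (nat_lit 49) (nat_lit 0x458119ca817b1ae5a857394c322615) (.node .nil (nat_lit 9) (nat_lit
  1089) (nat_lit 0xb0d2c7cce4951b1116e6705008556a) .nil))) (nat_lit 10) (nat_lit 66) (nat_lit
  0x18514b29d55b0ed05e508cccf22445) (.node (.node (.node (.node .nil (nat_lit 11) (nat_lit 34850) (nat_lit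
  0x7808c821a6aba87b85498d8ab18a53) .nil) (nat_lit 15) (nat_lit 34352) (nat_lit
  0x7c167005b6bba2caa12aa18a418a53) .nil) (nat_lit 16) (nat_lit 1) (nat_lit 0x98c31219b749d94116a072150b2df2)
  (.node .nil (nat_lit 18) (nat_lit 65) (nat_lit 0x1d9ed0ddd3032345aa123d4c822445) .nil)) (nat_lit 19)
  (nat_lit 16) (nat_lit 0x80d2cb828409e2d115e674953b2ea8) (.node (.node .nil (nat_lit 21) (nat_lit 34)
  (nat_lit 0x242f1b29805b8edaa241a4caf18926) .nil) (nat_lit 22) (nat_lit 1058) (nat_lit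
  0x85e6d1969211dcc080cf89149b2ea8) (.node .nil (nat_lit 23) (nat_lit 0) (nat_lit
  0xbdab49ca307b9ac5a928398a418820) .nil))))
def cwA_l0 : Lvl := ⟨nat_lit 23, [nat_lit 0x80d2cb828409e2d115e674953b2ea8, nat_lit
  0x30d14b81950b6271157072a569bc89], [nat_lit 0, nat_lit 0], cwA_t0⟩
def cwA_t1 : T := (.node (.node (.node (.node .nil (nat_lit 2) (nat_lit 0) (nat_lit
  0xbdab49ca307b9ac5a928398a418820) .nil) (nat_lit 3) (nat_lit 17) (nat_lit 0xb921452e28b38ed49a5564c6f11420)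
  (.node .nil (nat_lit 4) (nat_lit 2562) (nat_lit 0xbc1679ca367b1aeaa0aaa0d2231020) .nil)) (nat_lit 5)
  (nat_lit 2) (nat_lit 0xbbd14326352398794d706a85628c20) (.node (.node .nil (nat_lit 6) (nat_lit 514) (nat_lit
  0xba12c52e24b34ee85466a0a459bc20) .nil) (nat_lit 8) (nat_lit 1058) (nat_lit
  0xbac6e93e259b1b4559023c0d522420) (.node .nil (nat_lit 9) (nat_lit 49) (nat_lit
  0xbd64d3262f21d8e44053a156355820) .nil))) (nat_lit 10) (nat_lit 16) (nat_lit
  0xb948cac226436871896972a767c820) (.node (.node (.node .nil (nat_lit 11) (nat_lit 34) (nat_lit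
  0xb8ded82233a9e8c1153271944b2c20) .nil) (nat_lit 15) (nat_lit 545) (nat_lit
  0xbbd471962b131d494eb66a09049820) (.node .nil (nat_lit 16) (nat_lit 33) (nat_lit
  0xbd4aeb2a225b0ed441e3a489349820) .nil)) (nat_lit 18) (nat_lit 1) (nat_lit 0xb926d28a3219dd44990f642d55a820)
  (.node (.node .nil (nat_lit 19) (nat_lit 65) (nat_lit 0xbd8cc10e292b5d45aa043d5e894c20) .nil) (nat_lit 21)
  (nat_lit 1073) (nat_lit 0xbcc4e82223ab2877c9456d92b31020) (.node .nil (nat_lit 22) (nat_lit 80) (nat_lit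
  0xb8ac74562a8328d28e4b74ccf22420) .nil))))
def cwA_l1 : Lvl := ⟨nat_lit 2, [nat_lit 0xb948cac226436871896972a767c820, nat_lit
  0xb921452e28b38ed49a5564c6f11420], [nat_lit 0x220884208a10, nat_lit 0x10842844220884208a10], cwA_t1⟩
def cwA_t2 : T := (.node (.node (.node .nil (nat_lit 4) (nat_lit 0) (nat_lit 0xbdab49ca307b9ac5a928398a418820)
  .nil) (nat_lit 10) (nat_lit 1) (nat_lit 0xba64d4562f83a87312d362caa18820) .nil) (nat_lit 18) (nat_lit 2)
  (nat_lit 0xba1474922b3398d85676a3cb218820) (.node .nil (nat_lit 21) (nat_lit 34) (nat_lit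
  0xbcc8cb2a265b8f47c9096c0b518820) .nil))
def cwA_l2 : Lvl := ⟨nat_lit 4, [nat_lit 0xba64d4562f83a87312d362caa18820, nat_lit
  0xba1474922b3398d85676a3cb218820], [nat_lit 0x18863010422842210c610, nat_lit 0x2210c610], cwA_t2⟩
def cwA : List Lvl := [cwA_l0, cwA_l1, cwA_l2]
theorem cwA_chk : chkM cwA = true := by decide +kernel
theorem cent_wA : C1[wA] = gen mcode cwA_l0.gens :=
  cent_of_chk mcode_wA cwA_chk 3 (by decide +kernel) (by decide +kernel)
theorem card_cent_wA : Nat.card C1[wA] = 1080 := by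
  rw [cent_wA]; exact card_of_chk cwA_chk (by decide +kernel)

/-- A representative element. -/
noncomputable def wB : M24 := elt 18440936930668187774347113093664481
theorem mcode_wB : mcode wB = 18440936930668187774347113093664481 := mcode_elt (by decide +kernel)
theorem orderOf_wB : orderOf wB = 3 :=
  haveI : Fact (Nat.Prime 3) := ⟨by norm_num⟩
  gcM.orderOf_prime mcode_wB (by decide +kernel)
def cwB_t0 : T := (.node (.node (.node (.node (.node .nil (nat_lit 0) (nat_lit 17) (nat_lit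
  0xcc442d2cd32a554259070d6f3c417) .nil) (nat_lit 1) (nat_lit 2) (nat_lit 0x4592b344821e092b94b1be74356e1)
  (.node .nil (nat_lit 2) (nat_lit 1089) (nat_lit 0x41150125c1396d168df39518b05cd5) .nil)) (nat_lit 3)
  (nat_lit 2577) (nat_lit 0x2c8eb638603585543e9183553b8489) (.node (.node .nil (nat_lit 4) (nat_lit 33)
  (nat_lit 0x721eaa18648d44d3cc2c82c17496d2) .nil) (nat_lit 5) (nat_lit 1104) (nat_lit
  0x598a21d4f252233a40046a6e1759ec) .nil)) (nat_lit 6) (nat_lit 1569) (nat_lit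
  0x1b82f5da686ca878b08055d2535450) (.node (.node (.node .nil (nat_lit 7) (nat_lit 80) (nat_lit
  0x48eae908319c014559e8b998b69ca4) .nil) (nat_lit 8) (nat_lit 1057) (nat_lit
  0x110149a4cc916aeb28f74062d5be03) .nil) (nat_lit 9) (nat_lit 49) (nat_lit 0x3aaac7ce0e4d06522ee811820b4a2d)
  (.node (.node .nil (nat_lit 10) (nat_lit 1585) (nat_lit 0x8be400b14332e7545caea5889141a7) .nil) (nat_lit 11)
  (nat_lit 65) (nat_lit 0x82276719ab0d4e0bc8b48a8897b062) .nil))) (nat_lit 12) (nat_lit 1) (nat_lit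
  0x6c0b350e48009d70d164b25ec354f1) (.node (.node (.node (.node .nil (nat_lit 13) (nat_lit 16) (nat_lit
  0x61c4aa44162b6e44ccd008ea89396f) .nil) (nat_lit 14) (nat_lit 528) (nat_lit
  0x205d3501e7add88350765c8508b525) .nil) (nat_lit 15) (nat_lit 545) (nat_lit
  0x9356549e90bc5410110f9b0d5189d6) (.node (.node .nil (nat_lit 16) (nat_lit 529) (nat_lit
  0x5d1c8aa8f71ce22818966c925081ec) .nil) (nat_lit 17) (nat_lit 560) (nat_lit
  0xaba2925af35c82f6146d01c50a2906) .nil)) (nat_lit 18) (nat_lit 514) (nat_lit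
  0x780913ddd0406c6ab6699168a1898b) (.node (.node (.node .nil (nat_lit 19) (nat_lit 34352) (nat_lit
  0x7d461ba1d439ad168122940a454d8b) .nil) (nat_lit 20) (nat_lit 1073) (nat_lit
  0xb50b7029025cccf605a4aa4f180e4e) .nil) (nat_lit 21) (nat_lit 34) (nat_lit 0x8cae383aa46590b78a8130153495a7)
  (.node (.node .nil (nat_lit 22) (nat_lit 2576) (nat_lit 0xa5cf6704836012b7c8d12b6a814153) .nil) (nat_lit 23)
  (nat_lit 0) (nat_lit 0xbdab49ca307b9ac5a928398a418820) .nil))))
def cwB_l0 : Lvl := ⟨nat_lit 23, [nat_lit 0x61c4aa44162b6e44ccd008ea89396f, nat_lit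
  0xcc442d2cd32a554259070d6f3c417], [nat_lit 0, nat_lit 0], cwB_t0⟩
def cwB_t1 : T := (.node (.node (.node .nil (nat_lit 2) (nat_lit 0) (nat_lit 0xbdab49ca307b9ac5a928398a418820)
  .nil) (nat_lit 7) (nat_lit 80) (nat_lit 0xb92b13a6149146eb35e81198b54c20) (.node .nil (nat_lit 8) (nat_lit
  33) (nat_lit 0xba8654cdd1452c6a91e29418b69c20) .nil)) (nat_lit 9) (nat_lit 2) (nat_lit
  0xbd5b49a1cc49ac522847946035bc20) (.node (.node .nil (nat_lit 15) (nat_lit 17) (nat_lit
  0xbb6d499cc5146b01a9f24398b22420) .nil) (nat_lit 18) (nat_lit 560) (nat_lit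
  0xb8dae9099444166ad9277c4a454c20) (.node .nil (nat_lit 19) (nat_lit 1) (nat_lit
  0xbd550121859196eb0cf37d22d22420) .nil)))
def cwB_l1 : Lvl := ⟨nat_lit 2, [nat_lit 0xbaec643cb43b0916d4524ba0354c20, nat_lit
  0xbb6d499cc5146b01a9f24398b22420], [nat_lit 0x8404214221140501420208a10, nat_lit 0x2280a11], cwB_t1⟩
def cwB_t2 : T := (.node (.node .nil (nat_lit 4) (nat_lit 0) (nat_lit 0xbdab49ca307b9ac5a928398a418820) .nil)
  (nat_lit 13) (nat_lit 1) (nat_lit 0xbb54c79cb044486aae534d1d618820) (.node .nil (nat_lit 22) (nat_lit 16)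
  (nat_lit 0xb9166425d0996d4554ef9322d18820) .nil))
def cwB_l2 : Lvl := ⟨nat_lit 4, [nat_lit 0xb9166425d0996d4554ef9322d18820], [nat_lit 558129], cwB_t2⟩
def cwB : List Lvl := [cwB_l0, cwB_l1, cwB_l2]
theorem cwB_chk : chkM cwB = true := by decide +kernel
theorem cent_wB : C1[wB] = gen mcode cwB_l0.gens :=
  cent_of_chk mcode_wB cwB_chk 3 (by decide +kernel) (by decide +kernel)
theorem card_cent_wB : Nat.card C1[wB] = 504 := by
  rw [cent_wB]; exact card_of_chk cwB_chk (by decide +kernel)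

/-- A representative element. -/
noncomputable def w5 : M24 := elt 19853563083342301010231521117441089
theorem mcode_w5 : mcode w5 = 19853563083342301010231521117441089 := mcode_elt (by decide +kernel)
theorem orderOf_w5 : orderOf w5 = 5 :=
  haveI : Fact (Nat.Prime 5) := ⟨by norm_num⟩
  gcM.orderOf_prime mcode_w5 (by decide +kernel)
def cw5_t0 : T := (.node (.node (.node (.node (.node .nil (nat_lit 0) (nat_lit 66) (nat_lit
  0x1cd4f6a624b3a923b2b0418ab10417) .nil) (nat_lit 1) (nat_lit 2577) (nat_lit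
  0x12a0961dd6a964b6910fa1a33082e3) .nil) (nat_lit 2) (nat_lit 1569) (nat_lit 0xb095921d351527a2e1679a2d05c62)
  (.node (.node .nil (nat_lit 3) (nat_lit 561) (nat_lit 0x3d2db3228a3a6a25647598b0b8c41) .nil) (nat_lit 4)
  (nat_lit 33) (nat_lit 0x99d44424c05c6121b2a1138b76d1f6) .nil)) (nat_lit 7) (nat_lit 50705) (nat_lit
  0x24aca4d0c2616ad04de3bc5c159d10) (.node (.node (.node .nil (nat_lit 8) (nat_lit 2128) (nat_lit
  0xa4247228c3445750a597038a27da6d) .nil) (nat_lit 9) (nat_lit 80) (nat_lit 0x5d874980ac7b9a148aeaac4d23a204)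
  .nil) (nat_lit 10) (nat_lit 2) (nat_lit 0x64007209d344563a5c36794cd926aa) (.node .nil (nat_lit 11) (nat_lit
  49) (nat_lit 0x4d8f4990c17b9b0ba16219620aa992) .nil))) (nat_lit 12) (nat_lit 17) (nat_lit
  0x5202b80dd63c4976804fa14d364935) (.node (.node (.node (.node .nil (nat_lit 13) (nat_lit 1) (nat_lit
  0x80643029d311af5a25967c4ad22ce8) .nil) (nat_lit 15) (nat_lit 50209) (nat_lit
  0x98d0012cb2b9824ac0ec53a296d1f6) .nil) (nat_lit 16) (nat_lit 16) (nat_lit 0x6a18b854d73c489149400b8a3a3ed3)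
  (.node .nil (nat_lit 18) (nat_lit 65) (nat_lit 0x9d45255e244958038470438cb6d1f6) .nil)) (nat_lit 19)
  (nat_lit 528) (nat_lit 0x20122bb1cd0986a7d653b44b459d10) (.node (.node (.node .nil (nat_lit 20) (nat_lit
  1584) (nat_lit 0x68a1709ca91980b5111263a35a3ed3) .nil) (nat_lit 21) (nat_lit 560) (nat_lit
  0x23eedb04aaa3a6290c154c4cc59d10) .nil) (nat_lit 22) (nat_lit 514) (nat_lit
  0x4de611be30018545b6c8395c4aa992) (.node .nil (nat_lit 23) (nat_lit 0) (nat_lit
  0xbdab49ca307b9ac5a928398a418820) .nil))))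
def cw5_l0 : Lvl := ⟨nat_lit 23, [nat_lit 0x6a18b854d73c489149400b8a3a3ed3, nat_lit
  0x5202b80dd63c4976804fa14d364935], [nat_lit 0, nat_lit 0], cw5_t0⟩
def cw5_t1 : T := (.node (.node .nil (nat_lit 4) (nat_lit 0) (nat_lit 0xbdab49ca307b9ac5a928398a418820) .nil)
  (nat_lit 15) (nat_lit 1) (nat_lit 0xbae703bcac245144b6caa99d218820) (.node .nil (nat_lit 18) (nat_lit 16)
  (nat_lit 0xba4eca91d491550b216d99a2f18820) .nil))
def cw5_l1 : Lvl := ⟨nat_lit 4, [nat_lit 0xba4eca91d491550b216d99a2f18820], [nat_lit 0x108821], cw5_t1⟩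
def cw5 : List Lvl := [cw5_l0, cw5_l1]
theorem cw5_chk : chkM cw5 = true := by decide +kernel
theorem cent_w5 : C1[w5] = gen mcode cw5_l0.gens :=
  cent_of_chk mcode_w5 cw5_chk 5 (by decide +kernel) (by decide +kernel)
theorem card_cent_w5 : Nat.card C1[w5] = 60 := by
  rw [cent_w5]; exact card_of_chk cw5_chk (by decide +kernel)

theorem cls3 {g : M24} (hg : orderOf g = 3) : ∃ k : M24, g = k * wA * k⁻¹ ∨ g = k * wB * k⁻¹ := by
  obtain ⟨a, ha⟩ := class3A orderOf_wA fun h => h (pt 7) (idx_inj (by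
    rw [← ap_pcode, ← mcode, mcode_wA]; decide +kernel))
  obtain ⟨b, hb⟩ := class3B orderOf_wB fun p h => by
    have := congrArg idx h
    rw [← ap_pcode, ← mcode, mcode_wB] at this
    clear h; revert p; decide +kernel
  obtain ⟨k, h | h⟩ := class3 hg
  · exact ⟨k * a⁻¹, Or.inl (by rw [h, ha]; group)⟩
  · exact ⟨k * b⁻¹, Or.inr (by rw [h, hb]; group)⟩

theorem cls5 {g : M24} (hg : orderOf g = 5) : ∃ k : M24, g = k * w5 * k⁻¹ := by
  obtain ⟨a, ha⟩ := class5 orderOf_w5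
  obtain ⟨k, h⟩ := class5 hg
  exact ⟨k * a⁻¹, by rw [h, ha]; group⟩

end Cfsg.Agent.M24
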