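import Cfsg.Agent.M24.Dod

/-! # `M24`-invariant binary codes -/

set_option autoImplicit false

namespace Cfsg.Agent.M24

open Finset MulAction
open scoped Pointwise symmDiff

/-- An `M24`-invariant family of subsets closed under symmetric difference. -/
structure InvFam (P : Finset GolayPt → Prop) : Prop where
  empty : P ∅
  symm : ∀ s t, P s → P t → P (s ∆ t)
  smul : ∀ g ∈ M24, ∀ s, P s → P (g • s)

namespace InvFam
variable {P : Finset GolayPt → Prop} (h : InvFam P)
include h

theorem of_octad {o : Finset GolayPt} (ho : o ∈ octads) (hP : P o) : ∀ s, IsCw s → P s :=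
  IsCw.octad_induction h.empty (fun o' ho' => by
    obtain ⟨g, hg, rfl⟩ := trans_octads ho ho'
    exact h.smul g hg o hP) fun s t _ _ => h.symm s t

theorem of_cw {c : Finset GolayPt} (hc : IsCw c) (h0 : c ≠ ∅) (h1 : c ≠ univ) (hP : P c) :
    ∀ s, IsCw s → P s := by
  rcases hc.card with e | e | e | e | e
  · exact absurd (card_eq_zero.1 e) h0
  · exact h.of_octad ⟨hc, e⟩ hP
  · obtain ⟨g, rfl⟩ := exists_smul_D0 ⟨hc, e⟩
    have hD : P D0 := by simpa [M24_smul_def] using h.smul _ (g⁻¹).2 _ hP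
    obtain ⟨k, hk⟩ := exists_smul_D0 (d := unmask 28637)
      ⟨(isCw_unmask (by norm_num)).2 (by decide +kernel), by decide +kernel⟩
    have := h.symm _ _ hD (h.smul _ k.2 _ hD)
    rw [← M24_smul_def, hk, D0_eq, ← unmask_xor (by norm_num) (by norm_num)] at this
    exact h.of_octad (oct_rep (by decide +kernel)).1 this
  · have ho : univ \ c ∈ octads := ⟨hc.compl, by rw [card_univ_sdiff, card_golayPt, e]⟩
    obtain ⟨g, hg, e1⟩ := trans_octads ho O0_mem
    obtain ⟨k, hk, e2⟩ := trans_octads ho (oct_rep (m := 5279) (by decide +kernel)).1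
    have := h.symm _ _ (h.smul g hg c hP) (h.smul k hk c hP)
    have e3 : g • c = univ \ O0 := by rw [← e1, ← smul_compl, compl_compl']
    have e4 : k • c = univ \ unmask 5279 := by rw [← e2, ← smul_compl, compl_compl']
    rw [e3, e4, univ_sdiff_eq, univ_sdiff_eq,
      symmDiff_symmDiff_symmDiff_comm, symmDiff_self, symmDiff_bot, O0,
      ← unmask_xor (by norm_num) (by norm_num)] at this
    exact h.of_octad (oct_rep (by decide +kernel)).1 this
  · exact absurd (eq_univ_of_card c (e.trans card_golayPt.symm)) h1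

theorem even_of_pair {a b : GolayPt} (hab : a ≠ b) (hP : P {a, b}) : ∀ s, Even s.card → P s := by
  have hp : ∀ t : Finset GolayPt, t.card = 2 → P t := fun t ht => by
    obtain ⟨g, hg, rfl⟩ := trans_sets ((card_pair hab).trans ht.symm) (by rw [card_pair hab]; norm_num)
    exact h.smul g hg _ hP
  intro s
  induction hn : s.card using Nat.strong_induction_on generalizing s with
  | _ n ih =>
    intro he
    by_cases h0 : n = 0
    · rw [card_eq_zero.1 (hn.trans h0)]; exact h.empty
    · obtain ⟨t, hts, ht⟩ := exists_subset_card_eq (show 2 ≤ s.card by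
        obtain ⟨k, hk⟩ := he; omega)
      have h1 := card_symmDiff_add s t
      rw [inter_eq_right.2 hts] at h1
      have := h.symm _ _ (ih (n - 2) (by omega) (s ∆ t) (by omega)
        (by obtain ⟨k, hk⟩ := he; exact ⟨k - 1, by omega⟩)) (hp t ht)
      rwa [symmDiff_assoc, symmDiff_self, symmDiff_bot] at this

theorem pair_of_small {u : Finset GolayPt} (h0 : u ≠ ∅) (h4 : u.card ≤ 4)
    (hP : P u ∨ P (univ \ u)) : ∀ s, Even s.card → P s := by
  obtain ⟨a, ha⟩ := nonempty_iff_ne_empty.2 h0
  obtain ⟨b, hb⟩ : ∃ b, b ∉ u := by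
    by_contra hcon
    push Not at hcon
    have := card_le_card (fun a _ => hcon a : (univ : Finset GolayPt) ⊆ u)
    rw [card_univ, card_golayPt] at this
    omega
  have hab : a ≠ b := fun e => hb (e ▸ ha)
  obtain ⟨g, hg, e⟩ := agree5 (Equiv.swap a b) (F := u) (by omega)
  have e1 : u ∆ (g • u) = {a, b} := by
    rw [smul_eq_of_agree e]
    ext x
    rw [mem_symmDiff, ← inv_smul_mem_iff, Equiv.swap_inv, Equiv.Perm.smul_def, mem_insert,
      mem_singleton]
    by_cases h1 : x = a
    · simp [h1, ha, hb]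
    · by_cases h2 : x = b
      · simp [h2, ha, hb]
      · simp [Equiv.swap_apply_of_ne_of_ne h1 h2, h1, h2]
  refine h.even_of_pair hab ?_
  rw [← e1]
  rcases hP with hP | hP
  · exact h.symm _ _ hP (h.smul g hg _ hP)
  · have := h.symm _ _ hP (h.smul g hg _ hP)
    rwa [smul_compl, univ_sdiff_eq, univ_sdiff_eq, symmDiff_symmDiff_symmDiff_comm, symmDiff_self,
      symmDiff_bot] at this

theorem even_of_not_cw {w : Finset GolayPt} (hw : ¬ IsCw w) (hP : P w) :
    ∀ s, Even s.card → P s := by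
  obtain ⟨u, hu, hc⟩ := exists_leader w
  have h0 : u ≠ ∅ := by rintro rfl; exact hw (by rwa [← bot_eq_empty, symmDiff_bot] at hc)
  have ew : w = (w ∆ u) ∆ u := by rw [symmDiff_assoc, symmDiff_self, symmDiff_bot]
  by_cases hall : ∀ s, IsCw s → P s
  · refine h.pair_of_small h0 hu (Or.inl ?_)
    have := h.symm _ _ hP (hall _ hc)
    rwa [← symmDiff_assoc, symmDiff_self, bot_symmDiff] at this
  set c := w ∆ u
  by_cases c0 : c = ∅
  · refine h.pair_of_small h0 hu (Or.inl ?_)
    rwa [ew, c0, ← bot_eq_empty, bot_symmDiff] at hP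
  by_cases c1 : c = univ
  · refine h.pair_of_small h0 hu (Or.inr ?_)
    rwa [ew, c1, symmDiff_comm, ← univ_sdiff_eq] at hP
  exfalso
  have big : ∀ d, IsCw d → d ≠ ∅ → ∃ a ∈ d, a ∉ u := fun d hd hne => by
    by_contra hcon
    push Not at hcon
    exact hne (hd.eq_empty (lt_of_le_of_lt (card_le_card hcon) (by omega)))
  obtain ⟨a, ha, hau⟩ := big c hc c0
  obtain ⟨b, hb, hbu⟩ := big _ hc.compl fun e => c1 (by rw [← compl_compl' c, e]; simp)
  obtain ⟨g, hg, e⟩ := agree5 (Equiv.swap a b) (F := insert a u)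
    ((card_insert_le _ _).trans (by omega))
  have hfix : ∀ x ∈ u, g x = x := fun x hx => by
    rw [e x (mem_insert_of_mem hx),
      Equiv.swap_apply_of_ne_of_ne (by rintro rfl; exact hau hx) (by rintro rfl; exact hbu hx)]
  have gu : g • u = u := by rw [smul_eq_of_agree (σ := 1) hfix, one_smul]
  have h1 : P ((g • c) ∆ c) := by
    have := h.symm _ _ (h.smul g hg _ hP) hP
    rwa [ew, smul_symmDiff, gu, symmDiff_symmDiff_symmDiff_comm, symmDiff_self, symmDiff_bot] at this
  refine hall (h.of_cw ((hc.smul hg).symmDiff hc) (fun e0 => ?_) (fun e1 => ?_) h1)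
  · have : g • c = c := by rwa [← bot_eq_empty, symmDiff_eq_bot] at e0
    have h2 : g • a ∈ g • c := smul_mem_smul_finset ha
    rw [this, Equiv.Perm.smul_def, e a (mem_insert_self _ _), Equiv.swap_apply_left] at h2
    exact (mem_sdiff.1 hb).2 h2
  · obtain ⟨x, hx⟩ := nonempty_iff_ne_empty.2 h0
    have h2 : x ∈ (g • c) ∆ c := e1 ▸ mem_univ x
    have h3 : x ∈ g • c ↔ x ∈ c := by
      conv_lhs => rw [← hfix x hx]
      exact smul_mem_smul_finset_iff g
    rw [mem_symmDiff, h3] at h2
    tauto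

end InvFam

theorem invFam_of (W : Submodule (ZMod 2) (GolayPt → ZMod 2))
    (hW : ∀ σ ∈ M24, ∀ w ∈ W, (fun p => w (σ.symm p)) ∈ W) : InvFam fun s => ind s ∈ W where
  empty := by rw [ind_empty]; exact W.zero_mem
  symm s t hs ht := by rw [ind_symmDiff]; exact W.add_mem hs ht
  smul g hg s hs := by rw [ind_smul]; exact hW g hg _ hs

theorem sub_golay (W : Submodule (ZMod 2) (GolayPt → ZMod 2))
    (hW : ∀ σ ∈ M24, ∀ w ∈ W, (fun p => w (σ.symm p)) ∈ W) (hle : W ≤ golayCode) :
    W = ⊥ ∨ W = Submodule.span (ZMod 2) {fun _ => (1 : ZMod 2)} ∨ W = golayCode := by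
  by_cases h1 : ∃ w ∈ W, w ≠ 0 ∧ w ≠ fun _ => 1
  · obtain ⟨w, hw, a, b⟩ := h1
    refine Or.inr (Or.inr (le_antisymm hle fun c hc => ?_))
    have := (invFam_of W hW).of_cw (isCw_support.2 (hle hw))
      (fun e => a (support₂_inj (e.trans support₂_zero.symm)))
      (fun e => b (by rw [← ind_support w, e, ind_univ])) (by simpa using hw) _ (isCw_support.2 hc)
    simpa using this
  · push Not at h1
    by_cases h2 : (fun _ => (1 : ZMod 2)) ∈ W
    · refine Or.inr (Or.inl (le_antisymm (fun w hw => ?_) ((Submodule.span_singleton_le_iff_mem _ _).2 h2)))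
      by_cases h0 : w = 0
      · rw [h0]; exact Submodule.zero_mem _
      · rw [h1 w hw h0]; exact Submodule.mem_span_singleton_self _
    · refine Or.inl (eq_bot_iff.2 fun w hw => ?_)
      by_contra h0
      exact h2 (h1 w hw h0 ▸ hw)

end Cfsg.Agent.M24
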