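import Cfsg.Agent.M24.Subs
import Cfsg.Prelude.Def_Sporadic_a

/-! # The projective plane of order 4: a verified search for uniqueness -/

set_option autoImplicit false

namespace Cfsg.Agent.M24

open Finset MulAction
open scoped Pointwise symmDiff

/-- Coding of 21 points. -/
abbrev E21 : Enc (Fin 21) 21 := finEnc 21

theorem steiner_image {α β : Type*} [DecidableEq α] [DecidableEq β] {t k : ℕ} {L : Set (Finset α)}
    (h : IsSteinerSystem t k L) (e : α ≃ β) : IsSteinerSystem t k ((fun b => b.image e) '' L) := by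
  refine ⟨?_, fun s hs => ?_⟩
  · rintro _ ⟨b, hb, rfl⟩
    rw [card_image_of_injective _ e.injective, h.1 b hb]
  · obtain ⟨b, ⟨hb, hsb⟩, hu⟩ := h.2 (s.image e.symm)
      (by rw [card_image_of_injective _ e.symm.injective, hs])
    refine ⟨b.image e, ⟨⟨b, hb, rfl⟩, fun x hx => ?_⟩, ?_⟩
    · exact mem_image.2 ⟨_, hsb (mem_image_of_mem _ hx), e.apply_symm_apply x⟩
    · rintro _ ⟨⟨c, hc, rfl⟩, hsc⟩
      rw [hu c ⟨hc, fun x hx => ?_⟩]
      obtain ⟨y, hy, rfl⟩ := mem_image.1 hx
      obtain ⟨z, hz, rfl⟩ := mem_image.1 (hsc hy)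
      rwa [e.symm_apply_apply]

theorem steiner_unique {α : Type*} [DecidableEq α] {t k : ℕ} {L : Set (Finset α)}
    (h : IsSteinerSystem t k L) {a b : Finset α} (ha : a ∈ L) (hb : b ∈ L) (hc : t ≤ (a ∩ b).card) :
    a = b := by
  obtain ⟨s, hs, hst⟩ := exists_subset_card_eq hc
  exact (h.2 s hst).unique ⟨ha, hs.trans inter_subset_left⟩ ⟨hb, hs.trans inter_subset_right⟩

/-- A guess for a permutation moving the set `c` to the set `t`. -/
noncomputable def autoP (c t : ℕ) : ℕ :=
  Nat.rec (motive := fun _ => ℕ → ℕ → ℕ → ℕ) (fun _ _ p => p)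
    (fun _ ih a b p => bif' (Nat.beq a 0) p (force (Nat.log2 a) fun i => force (Nat.log2 b) fun j =>
      force (Nat.xor a (Nat.pow 2 i)) fun a' => force (Nat.xor b (Nat.pow 2 j)) fun b' =>
      force (Nat.xor p (Nat.xor (Nat.shiftLeft (Nat.xor i j) (Nat.mul 5 i))
        (Nat.shiftLeft (Nat.xor i j) (Nat.mul 5 j)))) (ih a' b')))
    4 (Nat.xor c (Nat.land c t)) (Nat.xor t (Nat.land c t)) 26128640051322339214200517265440

/-- The permutation `p` fixes `H` pointwise and the images of `A` include `B`. -/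
noncomputable def okP (H : ℕ) (A B : List ℕ) (p : ℕ) : Bool :=
  band (band (isPermG 5 31 21 p) (nall 21 fun i => bor (!H.testBit i) (Nat.beq (apw 5 31 p i) i)))
    (lmapk A (actG 5 31 21 p) fun l => lall B fun m => lany l (Nat.beq m))

/-- One step of the search. -/
noncomputable def stepChk (H : ℕ) (K : List ℕ) (T t : ℕ) (ps : List ℕ) : Bool :=
  band (band (Nat.ble (T + 1) 2097152) (Nat.beq (pc T) 2))
    (Nat.beq (cntSubs (fun c => !(bor (!Nat.beq (pc c) 5) (bor (Nat.ble 3 (pc (Nat.land c H)))
      (bor (lany K fun m => band (Nat.ble 2 (pc (Nat.land m c))) (!Nat.beq m c))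
        (bor (force (autoP c t) (okP H (c :: K) (t :: K))) (lany ps (okP H (c :: K) (t :: K))))))))
      21 3 T) 0)

/-- The whole search. -/
noncomputable def searchChk (H : ℕ) (F : List ℕ) (st : List (ℕ × ℕ × List ℕ)) : List ℕ → Bool :=
  List.rec (motive := fun _ => List ℕ → Bool) (fun K => lall F fun m => lany K (Nat.beq m))
    (fun s _ ih K => band (stepChk H K s.1 s.2.1 s.2.2) (ih (s.2.1 :: K))) st

/-- The family of sets listed by their masks. -/
def famL (F : List ℕ) : Set (Finset (Fin 21)) := {l | E21.mask l ∈ F}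

theorem search_sound {H : Finset (Fin 21)} {F : List ℕ}
    (hF : cntSubs (fun c => !lany F fun m => Nat.beq (Nat.land c m) c) 21 2 0 = 0)
    {st : List (ℕ × ℕ × List ℕ)} {K : List ℕ} (h : searchChk (E21.mask H) F st K = true)
    {L : Set (Finset (Fin 21))} (hL : IsSteinerSystem 2 5 L) (hH : ∀ l ∈ L, (l ∩ H).card ≤ 2)
    (hK : ∀ m ∈ K, ∃ l ∈ L, E21.mask l = m) :
    ∃ π : Equiv.Perm (Fin 21), (∀ a ∈ H, π a = a) ∧ π • L = famL F := by
  induction st generalizing K L with
  | nil =>
    have h1 : ∀ m ∈ F, ∃ l ∈ L, E21.mask l = m := fun m hm => by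
      obtain ⟨m', h1, h2⟩ := (lany_iff _ _).1 ((lall_iff _ _).1 h m hm)
      rw [Nat.eq_of_beq_eq_true h2]; exact hK _ h1
    refine ⟨1, fun _ _ => rfl, ?_⟩
    rw [one_smul]
    ext l
    constructor
    · intro hl
      obtain ⟨s, hs, h2⟩ := exists_subset_card_eq (show 2 ≤ l.card by rw [hL.1 l hl]; norm_num)
      rw [← E21.mask_empty] at hF
      obtain ⟨m, hm, e⟩ := (lany_iff _ _).1 (E21.forall_subs hF s h2)
      obtain ⟨l', hl', rfl⟩ := h1 m hm
      rw [empty_union, Nat.beq_eq, ← E21.subset_iff_mask] at e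
      rwa [(hL.2 s h2).unique ⟨hl, hs⟩ ⟨hl', e⟩]
    · intro hl
      obtain ⟨l', hl', e⟩ := h1 _ hl
      rwa [← E21.mask_inj e]
  | cons s st ih =>
    obtain ⟨T, t, ps⟩ := s
    have e : searchChk (E21.mask H) F ((T, t, ps) :: st) K =
      band (stepChk (E21.mask H) K T t ps) (searchChk (E21.mask H) F st (t :: K)) := rfl
    rw [e, stepChk] at h
    simp only [band_eq, Bool.and_eq_true, Nat.ble_eq, Nat.beq_eq] at h
    obtain ⟨⟨⟨h1, h2⟩, h3⟩, h4⟩ := h
    have h5 : E21.mask (E21.unmask T) = T := E21.mask_unmask h1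
    have h6 : (E21.unmask T).card = 2 := by rw [E21.card_eq_pc (by norm_num), h5, h2]
    obtain ⟨l, ⟨hl, hTl⟩, -⟩ := hL.2 _ h6
    rw [← h5] at h3
    have h7 := E21.forall_subs h3 (l \ E21.unmask T) (by rw [card_sdiff_of_subset hTl, hL.1 l hl, h6])
    have h8 : ∃ p, okP (E21.mask H) (E21.mask l :: K) (t :: K) p = true := by
      simp only [union_sdiff_of_subset hTl, bor_eq, Bool.or_eq_true, Bool.not_eq_true', Nat.ble_eq,
        ← E21.mask_inter, ← E21.card_eq_pc (show 21 ≤ 24 by norm_num), hL.1 l hl, lany_iff, force_eq,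
        Bool.and_eq_true] at h7
      rcases h7 with h7 | h7 | ⟨m, hm, h8, h9⟩ | h7 | ⟨p, -, h7⟩
      · exact absurd h7 (by simp)
      · have := hH l hl; omega
      · obtain ⟨l', hl', rfl⟩ := hK m hm
        rw [← E21.mask_inter, ← E21.card_eq_pc (by norm_num)] at h8
        rw [steiner_unique hL hl' hl h8, Nat.beq_refl] at h9
        exact absurd h9 (by simp)
      · exact ⟨_, h7⟩
      · exact ⟨_, h7⟩
    obtain ⟨p, hp⟩ := h8
    simp only [okP, band_eq, Bool.and_eq_true, nall_iff, lmapk_eq, lall_iff, lany_iff, Nat.beq_eq,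
      bor_eq, Bool.or_eq_true, Bool.not_eq_true'] at hp
    obtain ⟨⟨p1, p2⟩, p3⟩ := hp
    obtain ⟨g, rfl⟩ := E21.exists_code p1
    have hg : ∀ a ∈ H, g a = a := fun a ha => by
      rcases p2 _ (E21.idx_lt a) with h | h
      · rw [(E21.testBit_mask_idx H a).2 ha] at h; exact absurd h (by simp)
      · rw [E21.ap_code (by norm_num) (by norm_num)] at h; exact E21.idx_inj h
    have hgH : g • H = H := (image_congr hg).trans image_id
    obtain ⟨π, h9, h10⟩ := ih (L := g • L) h4 (steiner_image hL g) (by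
      rintro _ ⟨l', hl', rfl⟩
      rw [← hgH, ← smul_finset_inter, card_smul_finset]; exact hH l' hl') (by
      intro m hm
      obtain ⟨x, hx, rfl⟩ := p3 m hm
      obtain ⟨y, hy, rfl⟩ := List.mem_map.1 hx
      obtain ⟨l', hl', rfl⟩ : ∃ l' ∈ L, E21.mask l' = y := by
        rcases List.mem_cons.1 hy with rfl | hy
        · exact ⟨l, hl, rfl⟩
        · exact hK y hy
      exact ⟨g • l', Set.smul_mem_smul_set hl', (E21.act_mask (by norm_num) (by norm_num) g l').symm⟩)
    exact ⟨π * g, fun a ha => by rw [Equiv.Perm.mul_apply, hg a ha, h9 a ha], by rw [mul_smul, h10]⟩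

/-- The plane in which `0, …, 5` is a hyperoval. -/
def FH : List ℕ := [451, 3589, 28681, 229393, 1835041, 299014, 590346, 1179724, 1057810, 149538, 540820, 74020, 264472, 33960, 4720, 345152, 567360, 402048, 1120384, 1098496, 660736]
/-- The plane in another numbering. -/
def F0 : List ℕ := [31, 481, 7681, 122881, 1966081, 139810, 279618, 559234, 1118466, 590884, 299048, 151684, 272644, 1081924, 198728, 1057928, 541448, 1067056, 536656, 328336, 165136]

theorem searchH : searchChk 63 FH [(3, 451, []), (5, 3589, []), (9, 28681, []), (17, 229393, []), (33, 1835041, []), (6, 299014, []), (10,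
  590346, []), (12, 1179724, []), (18, 1057810, []), (34, 149538, []), (20, 540820, []), (36, 74020, []), (24,
  264472, []), (40, 33960, []), (48, 4720, []), (1088, 345152, []), (2112, 567360, []), (640, 402048, []),
  (2176, 1120384, []), (768, 1098496, []), (1280, 660736, [])] [] = true := by decide +kernel

theorem search0 : searchChk 0 F0 [(3, 31, []), (33, 481, []), (513, 7681, []), (8193, 122881, []), (131073, 1966081, []), (34, 139810, []),
  (66, 279618, []), (130, 559234, []), (258, 1118466, []), (36, 590884, [24900602361203237336055833266208,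
  24823850005570793468671790516256, 26090263873506117280508495890464, 23595812315451691590527106517024,
  23634188493267913524219127892000]), (40, 299048, [19666442124288685207052640946208]), (4100, 151684, []),
  (260, 272644, []), (68, 1081924, []), (72, 198728, []), (136, 1057928, []), (264, 541448, []), (48, 1067056,
  []), (80, 536656, []), (144, 328336, []), (272, 165136, [])] [] = true := by decide +kernel

theorem image_trans_fam {α β γ : Type*} [DecidableEq β] [DecidableEq γ] (e : α ≃ β) (f : β ≃ γ)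
    (L : Set (Finset α)) : (fun b => b.image (e.trans f)) '' L =
      (fun b => b.image f) '' ((fun b => b.image e) '' L) := by
  rw [Set.image_image]; simp only [image_image]; rfl

theorem plane_std {α : Type*} [Fintype α] [DecidableEq α] (hα : Fintype.card α = 21)
    {L : Set (Finset α)} (hL : IsSteinerSystem 2 5 L) :
    ∃ e : α ≃ Fin 21, (fun b => b.image e) '' L = famL F0 := by
  let e := Fintype.equivFinOfCardEq hα
  obtain ⟨π, -, h⟩ := search_sound (H := ∅) (by decide +kernel) (E21.mask_empty ▸ search0)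
    (steiner_image hL e) (by simp) (by simp)
  exact ⟨e.trans π, by rw [image_trans_fam, ← h]; rfl⟩

/-- The standard hyperoval. -/
def H0 : Finset (Fin 21) := E21.unmask 63

theorem plane_stdH {α : Type*} [DecidableEq α] {L : Set (Finset α)} (hL : IsSteinerSystem 2 5 L)
    {H : Finset α} (hH : ∀ l ∈ L, (l ∩ H).card ≤ 2) (e : α ≃ Fin 21) (he : H.image e = H0) :
    ∃ e' : α ≃ Fin 21, (∀ a ∈ H, e' a = e a) ∧ (fun b => b.image e') '' L = famL FH := by
  obtain ⟨π, h1, h⟩ := search_sound (H := H0) (F := FH) (by decide +kernel)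
    (by rw [H0, E21.mask_unmask (by norm_num)]; exact searchH) (steiner_image hL e) (by
      rintro _ ⟨l, hl, rfl⟩
      rw [← he, ← image_inter _ _ e.injective, card_image_of_injective _ e.injective]
      exact hH l hl) (by simp)
  exact ⟨e.trans π, fun a ha => h1 _ (he ▸ mem_image_of_mem e ha), by rw [image_trans_fam, ← h]; rfl⟩

end Cfsg.Agent.M24
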